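import Mathlib
import Cfsg.Agent.SG.T2
import Cfsg.Agent.S7.Two

/-!
An overgroup of the normaliser of a Singer cycle in dimension eleven is two-transitive on points.
-/

set_option autoImplicit false

namespace Cfsg.Agent.S11

open Module Cfsg.Agent.H7 Cfsg.Agent.H3.Ext Cfsg.Agent.SG
open scoped LinearAlgebra.Projectivization

section

variable {F K : Type*} [Field F] [Field K] [Algebra F K] [Fintype F] [Finite K]
  {X : Subgroup (K ≃ₗ[F] K)}

theorem num11 {p j c f : ℕ} (hp : 1 ≤ p) (hj : j = 1 ∨ j = 11 ∧ 11 ∣ p)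
    (hc : j * c * p + 1 = (p + 1) ^ 11) (hf : f * p ≤ (p + 1) ^ (11 - 1) + (p + 1) ^ 2) :
    (11 + 2 * j + 4) * 11 + 1 ≤ c ∧ j + f + 1 < c := by
  have h4 : (p + 1) ^ 4 ≤ (p + 1) ^ 10 := Nat.pow_le_pow_right (by omega) (by omega)
  have e : (p + 1) ^ 11 = (p + 1) * (p + 1) ^ 10 := by ring
  rcases hj with rfl | ⟨rfl, hd⟩
  · constructor
    · refine Nat.le_of_mul_le_mul_right ?_ (by omega : 0 < p)
      obtain ⟨r, rfl⟩ : ∃ r, p = r + 1 := ⟨p - 1, by omega⟩
      have : 188 * (r + 1) + 1 ≤ (r + 1 + 1) ^ 11 := by ring_nf; omega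
      rw [one_mul] at hc
      omega
    · refine Nat.lt_of_mul_lt_mul_right (a := p) ?_
      rw [e] at hc
      have : (p + 1) ^ 2 + 2 * p + 1 < (p + 1) ^ 4 := by
        nlinarith [Nat.zero_le (p ^ 3), Nat.zero_le (p ^ 4)]
      norm_num at hf
      generalize (p + 1) ^ 10 = Q at *
      nlinarith
  · obtain ⟨r, rfl⟩ : ∃ r, p = r + 11 := ⟨p - 11, by have := Nat.le_of_dvd (by omega) hd; omega⟩
    constructor
    · refine Nat.le_of_mul_le_mul_right ?_ (by omega : 0 < 11 * (r + 11))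
      have : 408 * (11 * (r + 11)) + 1 ≤ (r + 11 + 1) ^ 11 := by ring_nf; omega
      nlinarith
    · refine Nat.lt_of_mul_lt_mul_right (a := 11 * (r + 11)) ?_
      have : 132 * (r + 11) + 11 * ((r + 11 + 1) ^ (11 - 1) + (r + 11 + 1) ^ 2) + 1 <
          (r + 11 + 1) ^ 11 := by
        norm_num
        ring_nf
        omega
      nlinarith

theorem data11 (h11 : finrank F K = 11)
    (hX : ∀ g : K ≃ₗ[F] K, Semi K g → g ∈ SLV F K → g ∈ X) :
    ∃ j f : ℕ, (j = 1 ∨ j = 11 ∧ 11 ∣ Fintype.card F - 1) ∧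
      Nat.card (ℙ F K) = j * Nat.card (AX X) ∧
      j * Nat.card (AX X) * (Fintype.card F - 1) + 1 = Fintype.card F ^ 11 ∧
      (∀ g : GX X, g ≠ 1 → Nat.card (MulAction.fixedBy (ℙ F K) g) ≤ f) ∧
      (11 + 2 * j + 4) * 11 + 1 ≤ Nat.card (AX X) ∧ j + f + 1 < Nat.card (AX X) := by
  obtain ⟨j, hj, hc⟩ := card_AX (by rw [h11]; norm_num) hX
  have hq : 1 < Nat.card F := Finite.one_lt_card
  obtain ⟨p, hp⟩ : ∃ p, Nat.card F = p + 1 := ⟨Nat.card F - 1, by omega⟩
  have h1 := Projectivization.card' F K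
  rw [Module.natCard_eq_pow_finrank (K := F), hc, hp, add_tsub_cancel_right, h11] at h1
  rw [h11] at hj
  refine ⟨j, ((p + 1) ^ (11 - 1) + (p + 1) ^ 2) / p, hj, hc, ?_, ?_,
    num11 (by omega) ?_ h1.symm (Nat.div_mul_le_self _ _)⟩
  · rw [← Nat.card_eq_fintype_card, hp, add_tsub_cancel_right, h1]
  · rintro ⟨_, g, hg, rfl⟩ h
    have := fix_le (g := g) fun e => h (Subtype.ext e)
    rw [hp, add_tsub_cancel_right, h11] at this
    exact (Nat.le_div_iff_mul_le (by omega)).mpr this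
  · rwa [← Nat.card_eq_fintype_card, hp, add_tsub_cancel_right] at hj

theorem t2 (h11 : finrank F K = 11)
    (hS : X ≤ SLV F K) (hX : ∀ g : K ≃ₗ[F] K, Semi K g → g ∈ SLV F K → g ∈ X)
    (hg : ∃ g ∈ X, ¬ Semi K g) : H8.T2tv.T2 X := by
  obtain ⟨j, f, hj, hc, hq, hf, b1, b2⟩ := data11 h11 hX
  have hn : (finrank F K).Prime := by rw [h11]; norm_num
  have h3 : 3 ≤ finrank F K := by omega
  have hy : Ex.Hy (AX X) (ℙ F K) 11 j f :=
    ⟨isCA_AX hn h3 hS hX, (relIndex_AX hn h3 hS hX).trans h11,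
      fun a ha ha1 ω e => ha1 (AX_semireg ha e), hc, hf, b1, b2, not_normal_AX hn h3 hX hg⟩
  refine t2_of ?_
  rcases hj with rfl | ⟨rfl, hd⟩
  · exact fun x y x' y' h h' => Ex.two hy x y x' y' h h'
  · exact S7.two (f := f) hn (by omega) (by rw [h11]; exact hd) (by rw [h11]; exact hy)
      (norm_orbit hn h3 hS hX)

end

open Submodule Cfsg.Agent.Sg

variable {F G K : Type*} [Field F] [Fintype F] [Group G] [Field K] [Fintype K] [Algebra F K]

theorem pgT {σ : Representation F G K} {n : ℕ} (hn : finrank F K = n) (h11 : n = 11)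
    (hsc : Sc σ) (hS : Sing σ (LinearEquiv.refl F K))
    (hφ : ∃ g, ∀ v, σ g v = v ^ Fintype.card F)
    (hdet : ∀ g, ∃ a : F, LinearMap.det (σ g) = a ^ n) : NormK σ ∨ T2 σ := by
  subst hn
  have hp : (finrank F K).Prime := by rw [h11]; norm_num
  by_cases hg : ∃ g ∈ pgX σ, ¬ Semi K g
  · right
    have h := S11.t2 (X := pgX σ) h11 (fun _ h => h.1) (fun g hg hs => ⟨hs, ?_⟩) hg
    · intro x y x' y' h1 h2
      obtain ⟨g, ⟨-, k, hk⟩, a, b, ha, hb⟩ := h x y x' y' h1.1 h1.2 h2.1 h2.2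
      have ha0 : a ≠ 0 := fun e => h1.1 (by simpa [e] using ha)
      obtain ⟨s, hs⟩ := hsc a⁻¹ (inv_ne_zero ha0)
      refine ⟨s * k, by simp [hk, hs, ha, ha0], ?_⟩
      simp only [map_mul, Module.End.mul_apply, hk, hs, hb]
      exact smul_mem _ _ (smul_mem _ _ (mem_span_singleton_self _))
    · obtain ⟨τ, hτ⟩ := semi_iff.mp hg
      have h1 : g 1 ≠ 0 := by simp
      have h2 : Algebra.norm F (g 1) = 1 := by
        have e : g = mulE F K (Units.mk0 _ h1) * τ.toLinearEquiv := by ext x; rw [hτ x]; rfl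
        have := mem_SLV.mp hs
        rw [e, det_algEquiv_mul, det_algEquiv (hp.odd_of_ne_two (by omega)), mul_one] at this
        exact this
      obtain ⟨s, hs'⟩ := hS _ h2
      obtain ⟨φ, hφ⟩ := hφ
      obtain ⟨i, hi⟩ := (FiniteField.bijective_frobeniusAlgEquivOfAlgebraic_pow F K).2 τ
      refine ⟨s * φ ^ (i : ℕ), fun v => ?_⟩
      have h4 : ∀ (i : ℕ) v, σ (φ ^ i) v =
          (FiniteField.frobeniusAlgEquivOfAlgebraic F K ^ i) v := fun i => by
        induction i with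
        | zero => simp
        | succ i ih => intro v; rw [pow_succ', pow_succ', map_mul, Module.End.mul_apply, ih, hφ]; rfl
      rw [hτ v, map_mul, Module.End.mul_apply, h4, ← hi]
      exact hs' _
  · left
    push Not at hg
    intro g k
    obtain ⟨a, ha⟩ := hdet g
    let u : K ≃ₗ[F] K := LinearEquiv.ofLinear (σ g) (σ g⁻¹)
      (by rw [← Module.End.mul_eq_comp, ← map_mul]; simp; rfl)
      (by rw [← Module.End.mul_eq_comp, ← map_mul]; simp; rfl)
    have ha0 : a ≠ 0 := fun e => (LinearEquiv.isUnit_det' u).ne_zero (by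
      rw [e, zero_pow hp.ne_zero] at ha; exact ha)
    obtain ⟨s, hs⟩ := hsc a⁻¹ (inv_ne_zero ha0)
    let w : K ≃ₗ[F] K := u.trans (LinearEquiv.smulOfNeZero F K a⁻¹ (inv_ne_zero ha0))
    have hw : ∀ v, w v = a⁻¹ • σ g v := fun v => rfl
    obtain ⟨m, hm⟩ := hg w ⟨by
      rw [mem_SLV, show (w : K →ₗ[F] K) = a⁻¹ • σ g from LinearMap.ext hw, LinearMap.det_smul, ha,
        ← mul_pow, inv_mul_cancel₀ ha0, one_pow], s * g, fun v => by simp [hw, hs]⟩ k
    refine ⟨m, fun v => smul_right_injective K (inv_ne_zero ha0) ?_⟩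
    have := hm v
    simpa only [hw, smul_eq_mul, mul_smul_comm] using this

end Cfsg.Agent.S11
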