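import Cfsg.Agent.S7.Fin
import Cfsg.Agent.S11.T2

/-! The Singer cycle normaliser in dimension eleven. -/

set_option autoImplicit false
open Module Submodule

namespace Cfsg.Agent.S11.H5

open Sg

section
variable {F V V' G : Type*} [Field F] [Fintype F] [AddCommGroup V] [Module F V] [Module.Finite F V]
  [AddCommGroup V'] [Module F V'] [Module.Finite F V'] [Group G] [Finite G]
  {ρ : Representation F G V} {ρ' : Representation F G V'} {B : V →ₗ[F] V' →ₗ[F] F}
  {K : Type*} [Field K] [Fintype K] [Algebra F K]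

omit [Finite G] in
theorem spr6 {c : ℕ} {W : V → V → Submodule F V} (hW : WS ρ c W) (hs : Spread F W)
    (hn : finrank F V = 11) (hq : Fintype.card F = 2) (hc : c = 6) : False := by
  classical
  haveI : Finite V := Module.finite_of_finite F
  letI := Fintype.ofFinite V
  have cd : ∀ E : Submodule F V, (Finset.univ.filter fun x => x ∈ E).card =
      Fintype.card F ^ finrank F E := fun E => by
    rw [← Fintype.card_subtype, Module.card_eq_pow_finrank (K := F)]
  obtain ⟨x, hx⟩ : ∃ u : V, u ≠ 0 := finrank_pos_iff_exists_ne_zero.1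
    (show 0 < finrank F V by omega)
  have df : ∀ E : Submodule F V, x ∈ E → (Finset.univ.filter fun y => y ∈ E ∧ y ∉ span F {x}).card =
      2 ^ finrank F E - 2 := fun E hE => by
    have : (Finset.univ.filter fun y => y ∈ E ∧ y ∉ span F {x}) =
        (Finset.univ.filter fun y => y ∈ E) \ Finset.univ.filter fun y => y ∈ span F {x} := by
      ext y; simp
    rw [this, Finset.card_sdiff_of_subset (fun y hy => by
      simp only [Finset.mem_filter, Finset.mem_univ, true_and] at hy ⊢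
      exact (span_singleton_le_iff_mem _ _).2 hE hy), cd, cd, finrank_span_singleton hx, hq, pow_one]
  have e := Finset.card_eq_sum_card_image (W x)
    (Finset.univ.filter fun y => y ∈ (⊤ : Submodule F V) ∧ y ∉ span F {x})
  rw [df ⊤ trivial, finrank_top, hn, Finset.sum_congr rfl (g := fun _ => 30) fun E hE => ?_,
    Finset.sum_const, smul_eq_mul] at e
  · omega
  obtain ⟨y, hy, rfl⟩ := Finset.mem_image.1 hE
  simp only [Finset.mem_filter, Finset.mem_univ, true_and, mem_top] at hy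
  have k : Ind2 F x y := ⟨hx, hy⟩
  have r := hW.rank x y k
  have := df _ (hW.left x y k)
  rw [show finrank F (W x y) = 5 by omega] at this
  refine Eq.trans (congrArg Finset.card ?_) this
  ext z
  simp only [Finset.mem_filter, Finset.mem_univ, true_and, mem_top]
  exact ⟨fun ⟨a, b⟩ => ⟨b ▸ hW.right x z ⟨hx, a⟩, a⟩,
    fun ⟨a, b⟩ => ⟨b, hs x y x z k ⟨hx, b⟩ (hW.left x y k) a⟩⟩

theorem half11 (h : Ctx ρ ρ' B) (hi : Function.Injective ρ) (hp : PT ρ') 
    (hn : finrank F V = 11) {c c' : ℕ}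
    {W : V → V → Submodule F V} {T : V → V' → Submodule F V}
    {W' : V' → V' → Submodule F V'} {T' : V' → V → Submodule F V'} (hW : WS ρ c W)
    (hT : TS ρ ρ' B c W T) (hW' : WS ρ' c' W') (hT' : TS ρ' ρ B.flip c' W' T')
    (h3 : 11 ≤ 3 * c') (hcc : c' ≤ c)
    (tri : Spread F W ∨ ∃ j, 1 ≤ j ∧ finrank F V = 2 * c + j + 1)
    (sp : Spread F W → Odd (finrank F V) → 3 ≤ c → ∀ {r : ℕ}, r.Prime →
      IsPrimitiveRoot (Fintype.card F : ZMod r) c → ∀ {x y : V}, Ind2 F x y →
      ∀ {C : Submodule F V} {z : G}, FRD ρ (W x y) C z r → CC ρ) : CC ρ := by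
  have hodd : Odd 11 := by decide
  rcases tri with hs | ⟨j, hj, e⟩
  · have h4 := st hW hs (by omega)
    obtain ⟨r, hr, hq⟩ := SG.zsig (q := Fintype.card F) (n := c) Fintype.one_lt_card (by omega)
      (fun e => spr6 hW hs hn e.1 e.2)
    obtain ⟨x, hx⟩ : ∃ u : V, u ≠ 0 := finrank_pos_iff_exists_ne_zero.1
      (show 0 < finrank F V by omega)
    obtain ⟨y, hy⟩ : ∃ y, y ∉ span F {x} := by
      by_contra hc
      push Not at hc
      have := finrank_span_singleton (K := F) hx
      rw [Submodule.eq_top_iff'.2 hc, finrank_top] at this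
      omega
    obtain ⟨C, z, hz⟩ := fr hi h.sc hW (by omega) (by omega) hr hq ⟨hx, hy⟩
    exact sp hs (hn ▸ hodd) (by omega) hr hq ⟨hx, hy⟩ hz
  · obtain ⟨m, hm⟩ := hodd
    obtain ⟨h5, h6⟩ := iia h hW hT hW' hT' e (by omega) (by omega) (by omega) hcc
    exact (iib h hW hT hp (by omega) h6).elim

theorem main11 (h : Ctx ρ ρ' B) (hi : Function.Injective ρ) (hi' : Function.Injective ρ')
    (e : V ≃ₗ[F] K) (e' : V' ≃ₗ[F] K) (h11 : finrank F K = 11)
    (hS : Sing ρ e) (hS' : Sing ρ' e') (h2 : T2 ρ) : CC ρ := by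
  have n1 := e.finrank_eq
  have n2 := e'.finrank_eq
  obtain ⟨h2', f3⟩ := af h h2 (by omega)
  obtain ⟨-, f3'⟩ := af h.flip h2' (by omega)
  have p1 := pt h f3 (by omega)
  have p2 := pt h.flip f3' (by omega)
  obtain ⟨c, W, T, hW, hT⟩ := wt h h2 f3 p1 (by omega)
  obtain ⟨c', W', T', hW', hT'⟩ := wt h.flip h2' f3' p2 (by omega)
  have q1 := S7.poly7 e (by omega) hS hW
  have q2 := S7.poly7 e' (by omega) hS' hW'
  rcases le_total c' c with k | k
  · exact half11 h hi p2 (by omega) hW hT hW' hT' (by omega) k (tri hW (by omega) (by omega))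
      fun hs ho hc _ hr hq _ _ hxy _ _ hz => sp h hi h2 f3 hW hs ho hc hr hq hxy hz
  · exact cc_flip h (half11 h.flip hi' p1 (by omega) hW' hT' hW hT (by omega) k
      (tri hW' (by omega) (by omega))
      fun hs ho hc _ hr hq _ _ hxy _ _ hz => sp h.flip hi' h2' f3' hW' hs ho hc hr hq hxy hz)

end

open Br Cfsg.Agent.H7 in
theorem br11 {F K : Type*} [Field F] [Fintype F] [Field K] [Finite K]
    [Algebra F K] (h11 : finrank F K = 11) {X : Subgroup (K ≃ₗ[F] K)}
    (hC : ∀ u ∈ SG.C1 F K, SG.mulE F K u ∈ X)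
    (ht : ∀ u w u' w' : K, u ≠ 0 → w ∉ F ∙ u → u' ≠ 0 → w' ∉ F ∙ u' →
      ∃ g ∈ X, ∃ a b : F, g u = a • u' ∧ g w = b • w') : SLV F K ≤ X := by
  classical
  have := Fintype.ofFinite K
  have : Finite (K ≃ₗ[F] K) := Finite.of_injective _ DFunLike.coe_injective
  let ρ : Representation F (YY X) K :=
    LinearEquiv.automorphismGroup.toLinearMapMonoidHom.comp (YY X).subtype
  have hρ : ∀ (g : YY X) v, ρ g v = g.1 v := fun _ _ => rfl
  have hρ' : ∀ (g : YY X) (ξ : Dual F K) v, ρ.dual g ξ v = ξ (g.1.symm v) := fun _ _ _ => rfl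
  have hi : Function.Injective ρ := fun g h e =>
    Subtype.ext (LinearEquiv.ext fun v => by rw [← hρ, ← hρ, e])
  have hS : ∀ s : K, Algebra.norm F s = 1 → ∃ g : YY X, ∀ v, g.1 v = s * v := fun s hs => by
    have s0 : s ≠ 0 := by
      rintro rfl
      rw [Algebra.norm_zero] at hs
      exact zero_ne_one hs
    exact ⟨⟨_, le_YY (hC (Units.mk0 s s0) (SG.mem_C1.2 hs))⟩, fun _ => rfl⟩
  let e := (Algebra.traceForm F K).toDual (traceForm_nondegenerate F K)
  have he : ∀ y v, e y v = Algebra.trace F K (y * v) := fun _ _ => rfl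
  obtain ⟨g, a, x, f, hx, hf, h⟩ := main11 (ρ := ρ) (ρ' := ρ.dual) (B := Dual.eval F K)
    ⟨inferInstance, fun g x ξ => congrArg ξ (g.1.symm_apply_apply x), fun a ha => by
      obtain ⟨g, hg, h⟩ := sc_YY (X := X) ha
      exact ⟨⟨g, hg⟩, h⟩, fun a ha => by
      obtain ⟨g, hg, h⟩ := sc_YY (X := X) ha
      refine ⟨⟨g, hg⟩⁻¹, fun ξ => LinearMap.ext fun v => ?_⟩
      change ξ (g v) = _
      rw [h, map_smul]
      rfl⟩ hi (fun g h e => by
      refine inv_injective (Subtype.ext (LinearEquiv.ext fun v => ?_))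
      refine sub_eq_zero.1 ((forall_dual_apply_eq_zero_iff F _).1 fun ξ => ?_)
      rw [map_sub, sub_eq_zero]
      exact (hρ' g ξ v).symm.trans (e ▸ hρ' h ξ v))
    (LinearEquiv.refl F K) e.symm h11 (fun s hs => hS s hs) (fun s hs => by
      obtain ⟨g, hg⟩ := hS s hs
      refine ⟨g⁻¹, fun ξ => ?_⟩
      obtain ⟨y, rfl⟩ := e.surjective ξ
      rw [LinearEquiv.symm_apply_eq, e.symm_apply_apply]
      refine LinearMap.ext fun v => ?_
      change e y (g.1 v) = _
      rw [hg, he, he, mul_left_comm, mul_assoc]) (fun x y x' y' h h' => by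
      obtain ⟨g, hg, a, b, h1, h2⟩ := ht x y x' y' h.1 h.2 h'.1 h'.2
      have ha : a ≠ 0 := by
        rintro rfl
        exact h.1 (g.map_eq_zero_iff.1 (by rw [h1, zero_smul]))
      obtain ⟨s, hs, es⟩ := sc_YY (X := X) (inv_ne_zero ha)
      refine ⟨⟨s, hs⟩ * ⟨g, le_YY hg⟩, ?_, ?_⟩
      · change s (g x) = _
        rw [es, h1, smul_smul, inv_mul_cancel₀ ha, one_smul]
      · change s (g y) ∈ _
        rw [es, h2]
        exact smul_mem _ _ (smul_mem _ _ (mem_span_singleton_self _)))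
  exact sl_of (by omega) ht g.2 hx hf h

universe u

theorem singer11 : S7.SingerN.{u} 11 := by
  intro F K _ _ _ _ _ h11 X hS hX hg
  exact br11 h11 (fun u hu => hX _ (SG.semi_mulE u) (SG.mulE_mem_SLV.2 hu)) (t2 h11 hS hX hg)

end Cfsg.Agent.S11.H5
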